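import Cfsg.Prelude.Def_Classical
import Mathlib.GroupTheory.SpecificGroups.Quaternion
import Mathlib.Data.ZMod.Basic
import Cfsg.Agent.Classical.Unitary.Center
import Cfsg.Agent.Classical.Unitary.LangFinite

/-!
# The group `PSU₃(2)` as `3² : Q₈`, from a table model of the field with four elements
-/

set_option autoImplicit false

namespace CfsgLib.UnitaryThreeTwo

open Matrix Cfsg CfsgLib.Unitary

/-- The four-element field: `2` is a primitive cube root of unity, `3` its square. -/
abbrev K4 := Fin 4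

/-- Addition table. -/
def kadd (a b : K4) : K4 := ![![0, 1, 2, 3], ![1, 0, 3, 2], ![2, 3, 0, 1], ![3, 2, 1, 0]] a b

/-- Multiplication table. -/
def kmul (a b : K4) : K4 := ![![0, 0, 0, 0], ![0, 1, 2, 3], ![0, 2, 3, 1], ![0, 3, 1, 2]] a b

/-- Three by three matrices over the table. -/
abbrev M3 := Fin 3 → Fin 3 → K4

/-- Matrix product. -/
def mulM (A B : M3) : M3 := fun i j =>
  kadd (kadd (kmul (A i 0) (B 0 j)) (kmul (A i 1) (B 1 j))) (kmul (A i 2) (B 2 j))

/-- Scalar matrices. -/
def scalM (c : K4) : M3 := fun i j => if i = j then c else 0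

/-- Conjugate transpose. -/
def adjM (A : M3) : M3 := fun i j => kmul (A j i) (A j i)

/-- Determinant. -/
def detM (A : M3) : K4 :=
  kadd (kadd (kadd (kadd (kadd (kmul (kmul (A 0 0) (A 1 1)) (A 2 2)) (kmul (kmul (A 0 0) (A 1 2)) (A 2 1)))
    (kmul (kmul (A 0 1) (A 1 0)) (A 2 2))) (kmul (kmul (A 0 1) (A 1 2)) (A 2 0)))
    (kmul (kmul (A 0 2) (A 1 0)) (A 2 1))) (kmul (kmul (A 0 2) (A 1 1)) (A 2 0))

/-- Natural powers. -/
def powM (A : M3) : ℕ → M3
  | 0 => scalM 1
  | n + 1 => mulM (powM A n) A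

/-- A generator of order four. -/
def qi : M3 := ![![1, 1, 1], ![1, 2, 3], ![1, 3, 2]]

/-- A second generator of order four. -/
def qj : M3 := ![![1, 2, 2], ![3, 2, 3], ![3, 3, 2]]

/-- The lift of the quaternion group. -/
def qMat : QuaternionGroup 2 → M3
  | .a k => powM qi k.val
  | .xa k => mulM qj (powM qi k.val)

/-- A diagonal element of order three. -/
def na : M3 := ![![1, 0, 0], ![0, 2, 0], ![0, 0, 3]]

/-- A monomial element of order three. -/
def nb : M3 := ![![0, 1, 0], ![0, 0, 1], ![1, 0, 0]]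

/-- The lifts of the elementary group. -/
def nMat (u : ZMod 3 × ZMod 3) : M3 := mulM (powM na u.1.val) (powM nb u.2.val)

theorem qMat_mul : ∀ g h : QuaternionGroup 2, mulM (qMat g) (qMat h) = qMat (g * h) := by decide +kernel

theorem qMat_unit : ∀ g : QuaternionGroup 2, mulM (adjM (qMat g)) (qMat g) = scalM 1 ∧ detM (qMat g) = 1 := by
  decide +kernel

theorem nMat_unit : ∀ u, mulM (adjM (nMat u)) (nMat u) = scalM 1 ∧ detM (nMat u) = 1 := by decide +kernel

theorem nMat_mul : ∀ u v, ∃ c : K4, mulM (nMat u) (nMat v) = mulM (scalM c) (nMat (u + v)) := by decide +kernel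

theorem nMat_norm : ∀ g u, ∃ v, ∃ c : K4, mulM (qMat g) (nMat u) = mulM (scalM c) (mulM (nMat v) (qMat g)) := by
  decide +kernel

theorem disjointM : ∀ g u, ∀ c : K4, mulM (nMat u) (qMat g) = scalM c → g = 1 ∧ u = 0 := by decide +kernel

variable {F : Type*} [Field F]

/-- The value of a table entry. -/
def val (w : F) : K4 → F := ![0, 1, w, w + 1]

/-- The matrix of a table. -/
def mat (w : F) (A : M3) : Matrix (Fin 3) (Fin 3) F := Matrix.of fun i j => val w (A i j)

variable (w : F) (hw : w ^ 2 + w + 1 = 0) (h2 : (2 : F) = 0)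
include hw h2

theorem val_add (a b : K4) : val w (kadd a b) = val w a + val w b := by
  fin_cases a <;> fin_cases b <;> simp [val, kadd] <;>
    first | ring1 | linear_combination -h2 | linear_combination (w + 1) * h2 | linear_combination h2 | linear_combination w * h2 | linear_combination -w * h2 | linear_combination -(w + 1) * h2

theorem val_mul (a b : K4) : val w (kmul a b) = val w a * val w b := by
  fin_cases a <;> fin_cases b <;> simp [val, kmul] <;>
    first | linear_combination -hw + (w + 1) * h2 | linear_combination -hw | linear_combination -hw + h2 |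
      linear_combination -hw + w * h2

theorem mat_mul (A B : M3) : mat w (mulM A B) = mat w A * mat w B := by
  ext i j
  simp [mat, mulM, Matrix.mul_apply, Fin.sum_univ_three, val_add w hw h2, val_mul w hw h2]

omit hw h2 in
theorem mat_scal (c : K4) : mat w (scalM c) = (val w c) • 1 := by
  ext i j
  by_cases h : i = j <;> simp [mat, scalM, h, val]

theorem det_mat (A : M3) : (mat w A).det = val w (detM A) := by
  rw [Matrix.det_fin_three]
  simp only [mat, detM, Matrix.of_apply, val_add w hw h2, val_mul w hw h2]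
  linear_combination
    -(val w (A 0 0) * val w (A 1 2) * val w (A 2 1) + val w (A 0 1) * val w (A 1 0) * val w (A 2 2) +
      val w (A 0 2) * val w (A 1 1) * val w (A 2 0)) * h2

theorem val_injective : Function.Injective (val w) := by
  have h0 : w ≠ 0 := fun h => one_ne_zero (α := F) (by rw [h] at hw; linear_combination hw)
  have h1 : w ≠ 1 := fun h => one_ne_zero (α := F) (by rw [h] at hw; linear_combination hw - h2)
  have h1' : w + 1 ≠ 0 := fun h => h1 (by linear_combination h - h2)
  have h0' : w + 1 ≠ 1 := fun h => h0 (by linear_combination h)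
  have h1'' : w + 1 ≠ w := fun h => one_ne_zero (α := F) (by linear_combination h)
  intro a b hab
  fin_cases a <;> fin_cases b <;>
    simp [val, h0, h1, h1', h0', h1'', h0.symm, h1.symm, h1'.symm, h0'.symm, h1''.symm] at hab ⊢

theorem mat_injective : Function.Injective (mat w) := fun A B h => funext fun i => funext fun j =>
  val_injective w hw h2 (congrFun (congrFun h i) j)

theorem cjT_mat (A : M3) : cjT 2 (mat w A) = mat w (adjM A) := by
  ext i j
  simp [cjT, mat, adjM, val_mul w hw h2, sq]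

omit hw h2 in
theorem exists_root [Fintype F] (hF : Fintype.card F = 4) : ∃ w : F, w ^ 2 + w + 1 = 0 ∧ (2 : F) = 0 := by
  classical
  have h2 : (2 : F) = 0 := by
    have h := FiniteField.cast_card_eq_zero F
    rw [hF] at h
    exact pow_eq_zero_iff two_ne_zero |>.1 (by exact_mod_cast h)
  obtain ⟨w, hw⟩ : ∃ w : F, w ∉ ({0, 1} : Finset F) := by
    by_contra h
    push Not at h
    have hc := Finset.card_le_card (fun x _ => h x : Finset.univ ⊆ ({0, 1} : Finset F))
    rw [Finset.card_univ, hF] at hc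
    exact absurd (hc.trans Finset.card_le_two) (by norm_num)
  simp only [Finset.mem_insert, Finset.mem_singleton, not_or] at hw
  have hp : w ^ 4 = w := hF ▸ FiniteField.pow_card w
  have h : w * (w - 1) * (w ^ 2 + w + 1) = 0 := by linear_combination hp
  exact ⟨w, (mul_eq_zero.1 h).resolve_left (mul_ne_zero hw.1 (sub_ne_zero.2 hw.2)), h2⟩

end CfsgLib.UnitaryThreeTwo

namespace CfsgLib.UnitaryThreeTwo

open Matrix Cfsg CfsgLib.Unitary

/-- A normal elementary subgroup and a complement from two homomorphisms. -/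
theorem exists_normal_of_split {P A Q : Type*} [Group P] [Finite P] [CommGroup A] [Group Q] [Finite Q] [Finite A]
    (hA : ∀ a : A, a ^ 3 = 1) (n : A →* P) (q : Q →* P) (hcard : Nat.card P = Nat.card A * Nat.card Q)
    (hdisj : ∀ a g, n a * q g = 1 → a = 1 ∧ g = 1) (hnorm : ∀ g a, ∃ b, q g * n a = n b * q g) :
    ∃ (N : Subgroup P) (_ : N.Normal), Nat.card N = Nat.card A ∧ (∀ x ∈ N, x ^ 3 = 1) ∧ Nonempty (P ⧸ N ≃* Q) := by
  have hn : Function.Injective n := (injective_iff_map_eq_one n).2 fun a ha =>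
    (hdisj a 1 (by rw [ha, map_one, mul_one])).1
  have hinj : Function.Injective (fun z : A × Q => n z.1 * q z.2) := by
    rintro ⟨a, g⟩ ⟨b, h⟩ e
    simp only at e
    have e' : n (b⁻¹ * a) * q (g * h⁻¹) = 1 := by
      rw [map_mul, map_mul, map_inv, map_inv, mul_assoc, ← mul_assoc (n a), e]
      group
    obtain ⟨h1, h2⟩ := hdisj _ _ e'
    exact Prod.ext (inv_mul_eq_one.1 h1).symm (mul_inv_eq_one.1 h2)
  have hsurj : Function.Surjective (fun z : A × Q => n z.1 * q z.2) :=
    (hinj.bijective_of_nat_card_le (by rw [hcard, Nat.card_prod])).2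
  have hN : n.range.Normal := ⟨by
    rintro _ ⟨a, rfl⟩ x
    obtain ⟨⟨c, g⟩, rfl⟩ := hsurj x
    obtain ⟨b, hb⟩ := hnorm g a
    refine ⟨c * b * c⁻¹, ?_⟩
    simp only [map_mul, map_inv]
    rw [mul_assoc (n c) (q g), hb]
    group⟩
  refine ⟨n.range, hN, (Nat.card_congr (MonoidHom.ofInjective hn).toEquiv).symm, ?_, ⟨?_⟩⟩
  · rintro _ ⟨a, rfl⟩
    rw [← map_pow, hA, map_one]
  · refine (MulEquiv.ofBijective ((QuotientGroup.mk' n.range).comp q) ⟨?_, ?_⟩).symm
    · refine (injective_iff_map_eq_one _).2 fun g hg => ?_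
      obtain ⟨a, ha⟩ := (QuotientGroup.eq_one_iff _).1 hg
      exact (hdisj a⁻¹ g (by rw [map_inv, ha, inv_mul_cancel])).2
    · intro y
      obtain ⟨x, rfl⟩ := QuotientGroup.mk'_surjective n.range y
      obtain ⟨⟨a, g⟩, rfl⟩ := hsurj x
      refine ⟨g, ?_⟩
      have h1 : QuotientGroup.mk' n.range (n a) = 1 := (QuotientGroup.eq_one_iff _).2 ⟨a, rfl⟩
      simp only [MonoidHom.comp_apply, map_mul, h1, one_mul]

variable {F : Type*} [Field F] [Fintype F]

/-- `PSU₃(2) ≅ 3² : Q₈`. -/
theorem psu_three_two (hF : Fintype.card F = 4) :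
    ∃ (N : Subgroup (PSU 3 F 2)) (_ : N.Normal), Nat.card N = 9 ∧ (∀ x ∈ N, x ^ 3 = 1) ∧
      Nonempty (PSU 3 F 2 ⧸ N ≃* QuaternionGroup 2) := by
  obtain ⟨w, hw, h2⟩ := exists_root hF
  have hF2 : Fintype.card F = 2 ^ 2 := by rw [hF]; norm_num
  have hmem : ∀ A : M3, mulM (adjM A) A = scalM 1 → ∀ hd : (mat w A).det = 1,
      (⟨mat w A, hd⟩ : Matrix.SpecialLinearGroup (Fin 3) F) ∈ SU 3 F 2 := fun A hA hd => by
    refine mem_SU_iff_toGL_mem.trans (mem_GU_iff_cjT hF2) |>.2 ?_
    change cjT 2 (mat w A) * mat w A = 1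
    rw [cjT_mat w hw h2, ← mat_mul w hw h2, hA, mat_scal]
    simp [val]
  have hdet : ∀ A : M3, detM A = 1 → (mat w A).det = 1 := fun A hA => by
    rw [det_mat w hw h2, hA]; simp [val]
  let S : (A : M3) → mulM (adjM A) A = scalM 1 ∧ detM A = 1 → ↥(SU 3 F 2) := fun A h =>
    ⟨⟨mat w A, hdet A h.2⟩, hmem A h.1 _⟩
  let π := QuotientGroup.mk' (Subgroup.center ↥(SU 3 F 2))
  have hπ : ∀ {X Y : ↥(SU 3 F 2)} {c : F},
      ((X : Matrix.SpecialLinearGroup (Fin 3) F) : Matrix (Fin 3) (Fin 3) F) =
        c • ((Y : Matrix.SpecialLinearGroup (Fin 3) F) : Matrix (Fin 3) (Fin 3) F) → π X = π Y := by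
    intro X Y c h
    refine QuotientGroup.eq.2 ((mem_center_SU_iff hF2 (by norm_num) _).2 ⟨c⁻¹, ?_⟩)
    have hc : c ≠ 0 := fun h0 => by
      have hd := X.1.2
      rw [h, h0, zero_smul, Matrix.det_zero] at hd
      · exact zero_ne_one hd
    have hY : ((Y : Matrix.SpecialLinearGroup (Fin 3) F) : Matrix (Fin 3) (Fin 3) F) =
        c⁻¹ • ((X : Matrix.SpecialLinearGroup (Fin 3) F) : Matrix (Fin 3) (Fin 3) F) := by
      rw [h, smul_smul, inv_mul_cancel₀ hc, one_smul]
    rw [Subgroup.coe_mul, Subgroup.coe_inv, Matrix.SpecialLinearGroup.coe_mul, hY, Matrix.mul_smul,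
      ← Matrix.SpecialLinearGroup.coe_mul, inv_mul_cancel, Matrix.SpecialLinearGroup.coe_one,
      Matrix.scalar_apply, Matrix.smul_one_eq_diagonal]
  let q : QuaternionGroup 2 →* PSU 3 F 2 := π.comp (MonoidHom.mk' (fun g => S (qMat g) (qMat_unit g)) fun g h =>
    Subtype.ext (Subtype.ext (by
      change mat w (qMat (g * h)) = mat w (qMat g) * mat w (qMat h)
      rw [← mat_mul w hw h2, qMat_mul])))
  let n : Multiplicative (ZMod 3 × ZMod 3) →* PSU 3 F 2 :=
    MonoidHom.mk' (fun u => π (S (nMat u.toAdd) (nMat_unit _))) fun u v => by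
      rw [← map_mul π]
      obtain ⟨c, hc⟩ := nMat_mul u.toAdd v.toAdd
      refine (hπ (c := val w c) ?_).symm
      change mat w (nMat u.toAdd) * mat w (nMat v.toAdd) = _ • mat w (nMat (u.toAdd + v.toAdd))
      rw [← mat_mul w hw h2, hc, mat_mul w hw h2, mat_scal, smul_mul_assoc, one_mul]
  obtain ⟨N, hN, hc, h3, he⟩ := exists_normal_of_split (P := PSU 3 F 2) (by decide) n q
    (by
      rw [Nat.card_eq_fintype_card (α := Multiplicative (ZMod 3 × ZMod 3)),
        Nat.card_eq_fintype_card (α := QuaternionGroup 2)]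
      have h := card_PSU (n := 3) (q := 2) (F := F) hF2 (by norm_num)
      simp [Finset.prod_range_succ, QuaternionGroup.card] at h ⊢
      norm_num at h ⊢
      omega)
    (fun u g h => by
      change π _ * π _ = 1 at h
      rw [← map_mul, QuotientGroup.mk'_apply, QuotientGroup.eq_one_iff, mem_center_SU_iff hF2 (by norm_num)] at h
      obtain ⟨c, hc⟩ := h
      change mat w (nMat u.toAdd) * mat w (qMat g) = _ at hc
      obtain ⟨k, rfl⟩ : ∃ k, val w k = c := by
        refine ⟨mulM (nMat u.toAdd) (qMat g) 0 0, ?_⟩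
        rw [← mat_mul w hw h2] at hc
        have := congrFun (congrFun hc 0) 0
        simpa [mat] using this
      rw [← mat_mul w hw h2, Matrix.scalar_apply, ← Matrix.smul_one_eq_diagonal, ← mat_scal] at hc
      obtain ⟨h1, h2'⟩ := disjointM g u.toAdd k (mat_injective w hw h2 hc)
      exact ⟨h2', h1⟩)
    (fun g u => by
      obtain ⟨v, c, hv⟩ := nMat_norm g u.toAdd
      refine ⟨Multiplicative.ofAdd v, ?_⟩
      change π _ * π _ = π _ * π _
      rw [← map_mul, ← map_mul]
      refine hπ (c := val w c) ?_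
      change mat w (qMat g) * mat w (nMat u.toAdd) = _ • (mat w (nMat v) * mat w (qMat g))
      rw [← mat_mul w hw h2, hv, mat_mul w hw h2, mat_mul w hw h2, mat_scal, smul_mul_assoc, one_mul])
  exact ⟨N, hN, hc.trans (by simp), h3, he⟩

end CfsgLib.UnitaryThreeTwo
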